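import Mathlib
import Cfsg.Agent.Lib.Helper40.OTSP.Defs
import Cfsg.Agent.Lib.Helper99.Quad3

/-!
OTSP (S5973), SPREAD cut of helper40, package [HYP]: a quadratic space of dimension `2 d` with
nondegenerate polar form and a totally singular `d`-space is isometric to the standard plus form.
-/

set_option autoImplicit false

namespace Cfsg.Agent.Lib.Helper21.OTSP

open Cfsg.Agent.Lib.Helper40.OTSP Module QuadraticMap

universe u

theorem pkgHyp : PkgHyp.{u} := by
  intro F _ _ d κ _ _ Q' hcard hnd hT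
  obtain ⟨T, hT0, hTd⟩ := hT
  classical
  have hM : Cfsg.Agent.Lib.Helper99.QNondegOn Q' ⊤ :=
    fun u _ hu => hnd.1 u (fun v => hu v Submodule.mem_top)
  obtain ⟨e, f, hH, -⟩ :=
    Cfsg.Agent.Lib.Helper99.hyp_of_singular Q' d ⊤ T hM le_top hT0 hTd.ge
  have hfr : finrank F (κ → F) = 2 * d + Fintype.card (Fin 0) := by
    rw [Module.finrank_fintype_fun_eq_card, hcard, Fintype.card_fin, Nat.add_zero]
  obtain ⟨b, hbe, hbf, -⟩ :=
    Cfsg.Agent.Lib.Helper99.mkBasis' Q' e f hH (Fin.elim0 : Fin 0 → (κ → F))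
      (linearIndependent_empty_type) (fun j => j.elim0) hfr
  have hH' : Cfsg.Agent.Lib.Helper99.HypFam Q' (fun i => b (Sum.inl (Sum.inl i)))
      (fun i => b (Sum.inl (Sum.inr i))) := by
    have h4 : (fun i => b (Sum.inl (Sum.inl i))) = e := funext hbe
    have h5 : (fun i => b (Sum.inl (Sum.inr i))) = f := funext hbf
    rw [h4, h5]
    exact hH
  have heval := Cfsg.Agent.Lib.Helper99.basis_eval Q' b hH' (fun j => j.elim0)
  have heval' : ∀ v, Q' v =
      ∑ i, b.repr v (Sum.inl (Sum.inl i)) * b.repr v (Sum.inl (Sum.inr i)) := by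
    intro v
    rw [heval v]
    simp
  let ψ₀ : (κ → F) →ₗ[F] (Fin d ⊕ Fin d → F) :=
    LinearMap.pi (Sum.elim (fun i => b.coord (Sum.inl (Sum.inl i)))
      (fun i => b.coord (Sum.inl (Sum.inr i))))
  have hψ1 : ∀ u i, ψ₀ u (Sum.inl i) = b.repr u (Sum.inl (Sum.inl i)) := fun u i => rfl
  have hψ2 : ∀ u i, ψ₀ u (Sum.inr i) = b.repr u (Sum.inl (Sum.inr i)) := fun u i => rfl
  have hinj : Function.Injective ψ₀ := by
    rw [← LinearMap.ker_eq_bot, LinearMap.ker_eq_bot']
    intro u hu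
    apply b.ext_elem
    intro j
    rw [map_zero, Finsupp.zero_apply]
    rcases j with (j | j) | j
    · have h4 := congrFun hu (Sum.inl j)
      rw [hψ1, Pi.zero_apply] at h4
      exact h4
    · have h4 := congrFun hu (Sum.inr j)
      rw [hψ2, Pi.zero_apply] at h4
      exact h4
    · exact j.elim0
  have hfr2 : finrank F (κ → F) = finrank F (Fin d ⊕ Fin d → F) := by
    rw [Module.finrank_fintype_fun_eq_card, Module.finrank_fintype_fun_eq_card, hcard,
      Fintype.card_sum, Fintype.card_fin]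
    omega
  refine ⟨LinearMap.linearEquivOfInjective ψ₀ hinj hfr2, ?_⟩
  intro u
  have h5 : (LinearMap.linearEquivOfInjective ψ₀ hinj hfr2) u = ψ₀ u := rfl
  rw [h5, heval' u]
  unfold Cfsg.quadFormPlus
  apply Finset.sum_congr rfl
  intro i _
  rw [hψ1, hψ2]

end Cfsg.Agent.Lib.Helper21.OTSP
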