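import Mathlib
import Cfsg.Agent.Lib.Helper99.OTSP.Defs

/-!
OTSP (S5973) package [NUMEV1]: arithmetic, `i` even, `i ≤ m`.
-/

set_option autoImplicit false

namespace Cfsg.Agent.Lib.Helper21.OTSP

open Cfsg.Agent.Lib.Helper99.OTSP

/-- the key translation: with `m = i M + ℓ`, `n = i J + k`, the inequality of `CondEv` only
depends on `J - j - 2 (M - s)`. -/
theorem numev_key (i m n M ℓ J k s j δ : ℕ) (hi : 2 ≤ i) (hm : i * M + ℓ = m)
    (hn : i * J + k = n) (hℓ : ℓ < i) (hk : k < i) (hδ : δ ≤ 2) (hjJ : j ≤ J) :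
    (i * s ≤ m ∧ 2 * (m - i * s) + δ ≤ n - i * j) ↔
      (s ≤ M ∧ (2 * (M - s) + 2 ≤ J - j ∨ (J - j = 2 * (M - s) + 1 ∧ 2 * ℓ + δ ≤ i + k) ∨
        (J - j = 2 * (M - s) ∧ 2 * ℓ + δ ≤ k))) := by
  subst hm hn
  by_cases hsM : s ≤ M
  · obtain ⟨a, rfl⟩ := Nat.exists_eq_add_of_le hsM
    obtain ⟨b, rfl⟩ := Nat.exists_eq_add_of_le hjJ
    have h1 : i * (s + a) = i * s + i * a := Nat.mul_add _ _ _
    have h2 : i * (j + b) = i * j + i * b := Nat.mul_add _ _ _
    have e1 : s + a - s = a := by omega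
    have e2 : j + b - j = b := by omega
    rw [e1, e2]
    rcases Nat.lt_or_ge b (2 * a) with hb | hb
    · -- b < 2a : false
      obtain ⟨e, he⟩ : ∃ e, 2 * a = b + 1 + e := ⟨2 * a - b - 1, by omega⟩
      have h3 : 2 * (i * a) = i * b + i + i * e := by
        calc 2 * (i * a) = i * (2 * a) := by ring
          _ = i * (b + 1 + e) := by rw [he]
          _ = i * b + i + i * e := by ring
      constructor
      · rintro ⟨_, h⟩; omega
      · rintro ⟨_, h⟩; omega
    · rcases Nat.lt_or_ge b (2 * a + 2) with hb2 | hb2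
      · rcases Nat.lt_or_ge b (2 * a + 1) with hb1 | hb1
        · -- b = 2a
          have hb0 : b = 2 * a := by omega
          have h3 : i * b = 2 * (i * a) := by rw [hb0]; ring
          constructor
          · rintro ⟨_, h⟩; omega
          · rintro ⟨_, h⟩; omega
        · -- b = 2a + 1
          have hb0 : b = 2 * a + 1 := by omega
          have h3 : i * b = 2 * (i * a) + i := by rw [hb0]; ring
          constructor
          · rintro ⟨_, h⟩; omega
          · rintro ⟨_, h⟩; omega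
      · -- b ≥ 2a + 2
        obtain ⟨e, he⟩ : ∃ e, b = 2 * a + 2 + e := ⟨b - 2 * a - 2, by omega⟩
        have h3 : i * b = 2 * (i * a) + 2 * i + i * e := by rw [he]; ring
        constructor
        · rintro ⟨_, h⟩; omega
        · rintro ⟨_, h⟩; omega
  · -- s > M: both sides false
    have h1 : i * (M + 1) ≤ i * s := Nat.mul_le_mul_left i (by omega)
    rw [Nat.mul_succ] at h1
    constructor
    · rintro ⟨h, _⟩; omega
    · rintro ⟨h, _⟩; omega

theorem pkgNumEv1 : PkgNumEv1 := by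
  intro i m d t hie hi2 him hmd ht
  have hipos : 0 < i := by omega
  have hm : i * (m / i) + m % i = m := Nat.div_add_mod m i
  have hℓ : m % i < i := Nat.mod_lt _ hipos
  have hn : i * (2 * d / i) + (2 * d) % i = 2 * d := Nat.div_add_mod (2 * d) i
  have hk : (2 * d) % i < i := Nat.mod_lt _ hipos
  have hkev : ((2 * d) % i) % 2 = 0 := by
    obtain ⟨i', hi'⟩ := hie
    have : i * (2 * d / i) = 2 * (i' * (2 * d / i)) := by rw [hi']; ring
    omega
  have hM1 : 1 ≤ m / i := (Nat.one_le_div_iff hipos).2 him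
  have hJ2 : 2 ≤ 2 * d / i := by
    rw [Nat.le_div_iff_mul_le hipos]; omega
  rw [Nat.odd_iff, Nat.even_iff]
  generalize m / i = M at *
  generalize m % i = ℓ at *
  generalize 2 * d / i = J at *
  generalize 2 * d % i = k at *
  have key := fun (j s δ : ℕ) (hδ : δ ≤ 2) (hjJ : j ≤ J) =>
    numev_key i m (2 * d) M ℓ J k s j δ hi2 hm hn hℓ hk hδ hjJ
  have hPJ1 : i * (J - 1) + i = i * J := by
    rw [← Nat.mul_succ, Nat.succ_eq_add_one, Nat.sub_add_cancel (by omega)]
  have hPJ2 : i * (J - 2) + 2 * i = i * J := by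
    have : i * (J - 2) + 2 * i = i * (J - 2 + 2) := by ring
    rw [this, Nat.sub_add_cancel hJ2]
  unfold AllEv CondEv
  constructor
  · intro hall
    by_cases hcase : k = 0 ∧ J % 2 = 1
    · -- case B: use j = J - 1 and j = J - 2
      obtain ⟨hk0, hJo⟩ := hcase
      obtain ⟨s₁, hs₁, h1a, h1b⟩ := hall (J - 1) (by omega) (by omega) (fun h => by omega)
      obtain ⟨s₂, hs₂, h2a, h2b⟩ := hall (J - 2) (by omega) (by omega) (fun h => by omega)
      have e1 : Even (J - 1) := by rw [Nat.even_iff]; omega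
      have e2 : ¬ Even (J - 2) := by rw [Nat.even_iff]; omega
      rw [if_pos e1] at h1b
      rw [if_neg e2] at h2b
      have k1 := (key (J - 1) s₁ 0 (by omega) (by omega)).1 ⟨h1a, h1b⟩
      have k2 := (key (J - 2) s₂ 2 (by omega) (by omega)).1 ⟨h2a, h2b⟩
      omega
    · -- case A: use j = J and j = J - 1
      obtain ⟨s₁, hs₁, h1a, h1b⟩ := hall J (by omega) (by omega)
        (fun h => Nat.even_iff.2 (by omega))
      obtain ⟨s₂, hs₂, h2a, h2b⟩ := hall (J - 1) (by omega) (by omega) (fun h => by omega)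
      by_cases hJe : J % 2 = 0
      · have e1 : Even J := Nat.even_iff.2 hJe
        have e2 : ¬ Even (J - 1) := by rw [Nat.even_iff]; omega
        rw [if_pos e1] at h1b
        rw [if_neg e2] at h2b
        have k1 := (key J s₁ 0 (by omega) le_rfl).1 ⟨h1a, h1b⟩
        have k2 := (key (J - 1) s₂ 2 (by omega) (by omega)).1 ⟨h2a, h2b⟩
        omega
      · have e1 : ¬ Even J := by rw [Nat.even_iff]; exact hJe
        have e2 : Even (J - 1) := by rw [Nat.even_iff]; omega
        rw [if_neg e1] at h1b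
        rw [if_pos e2] at h2b
        have k1 := (key J s₁ 2 (by omega) le_rfl).1 ⟨h1a, h1b⟩
        have k2 := (key (J - 1) s₂ 0 (by omega) (by omega)).1 ⟨h2a, h2b⟩
        omega
  · rintro ⟨hR0, hR⟩ j hj1 hjn hjpar
    have hjJ : j ≤ J := by
      by_contra h
      have h1 : i * (J + 1) ≤ i * j := Nat.mul_le_mul_left i (by omega)
      rw [Nat.mul_succ] at h1
      omega
    have hjpar' : j = J → k = 0 → j % 2 = 0 := fun h1 h2 =>
      Nat.even_iff.1 (hjpar (by rw [h1]; omega))
    by_cases hje : j % 2 = 0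
    · have e1 : Even j := Nat.even_iff.2 hje
      rw [if_pos e1]
      rcases le_total ((j + 1 - t) / 2) M with h | h
      · exact ⟨(j + 1 - t) / 2, le_rfl, (key j _ 0 (by omega) hjJ).2 ⟨h, by omega⟩⟩
      · exact ⟨M, h, (key j _ 0 (by omega) hjJ).2 ⟨le_rfl, by omega⟩⟩
    · have e1 : ¬ Even j := by rw [Nat.even_iff]; exact hje
      rw [if_neg e1]
      rcases le_total ((j + 1 - t) / 2) M with h | h
      · exact ⟨(j + 1 - t) / 2, le_rfl, (key j _ 2 (by omega) hjJ).2 ⟨h, by omega⟩⟩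
      · exact ⟨M, h, (key j _ 2 (by omega) hjJ).2 ⟨le_rfl, by omega⟩⟩

end Cfsg.Agent.Lib.Helper21.OTSP
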