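import Mathlib
import Cfsg.Agent.Lib.Helper99.OTSP.Defs

/-!
OTSP (S5973) package [NUMEV2]: arithmetic, `i` even, `m < i`.
-/

set_option autoImplicit false

namespace Cfsg.Agent.Lib.Helper21.OTSP

open Cfsg.Agent.Lib.Helper99.OTSP

theorem pkgNumEv2 : PkgNumEv2 := by
  intro i m d t hie hi2 hm1 hmi hmd ht hex hall
  unfold AllEv CondEv at hall
  have hs0 : ∀ s, i * s ≤ m → s = 0 := by
    intro s hs
    by_contra h
    have h1 : i * 1 ≤ i * s := Nat.mul_le_mul_left i (by omega)
    omega
  rcases hex with ⟨e, h1, h2, a, rfl⟩ | ⟨e, h1, h2, h3⟩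
  · -- j = 2 a
    have hP : i * (2 * a) = 2 * (i * a) := by ring
    have ha1 : 1 ≤ a := by
      rcases Nat.eq_zero_or_pos a with h | h
      · subst h; simp at h1
      · exact h
    obtain ⟨s, -, hs, hineq⟩ := hall (2 * a) (by omega) (by omega) (fun _ => even_two_mul a)
    have hs' := hs0 s hs
    subst hs'
    rw [if_pos (even_two_mul a)] at hineq
    simp only [Nat.mul_zero] at hineq
    omega
  · -- j = 2 a + 1 with a = e / i
    have hdm : i * (e / i) + e % i = e := Nat.div_add_mod e i
    have hi2' : i / 2 * 2 = i := Nat.div_mul_cancel (even_iff_two_dvd.1 hie)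
    have hP : i * (2 * (e / i) + 1) = 2 * (i * (e / i)) + i := by ring
    have hodd : ¬ Even (2 * (e / i) + 1) := by rw [Nat.even_iff]; omega
    obtain ⟨s, -, hs, hineq⟩ := hall (2 * (e / i) + 1) (by omega) (by omega) (fun h => by omega)
    have hs' := hs0 s hs
    subst hs'
    rw [if_neg hodd] at hineq
    simp only [Nat.mul_zero] at hineq
    omega

end Cfsg.Agent.Lib.Helper21.OTSP
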